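import Mathlib
import Cfsg.Prelude.Def_Local
import Cfsg.Agent.S0030
import Cfsg.Agent.Lib.CoprimeStab
import Cfsg.Agent.Lib.PSolvable
import Cfsg.Agent.Lib.Cores
import Cfsg.Agent.OddOrderLocal.Thm36Aux
set_option linter.all false

/-!
# `p`-length one from transitivity on elements (subgroups) of order `p`

* `exists_mul_mem_normalizer`: Frattini argument for a complement of a normal `p`-subgroup.
* `index_coprime_or`: `H` `p`-solvable, `O_{p'}(H) = 1`, every characteristic subgroup with an element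
  of order `p` contains all of them: either `O_p(H)` is a Sylow subgroup, or the preimage of
  `O_{p'}(H/O_p(H))` centralizes all elements of order `p`.
-/

set_option autoImplicit false

namespace Cfsg.Agent.H453.PLen

open Cfsg Subgroup Pointwise

/-- Frattini argument for a coprime complement. -/
theorem exists_mul_mem_normalizer {G : Type*} [Group G] [Finite G] (Q L : Subgroup G) [Q.Normal]
    (hQs : Group.IsSolvable Q) (hcop : (Nat.card L).Coprime (Nat.card Q)) (hM : (Q ⊔ L).Normal) (h : G) :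
    ∃ q ∈ Q, q * h ∈ normalizer (L : Set G) := by
  have hB : L.map (MulAut.conj h).toMonoidHom ≤ Q ⊔ L := by
    rintro _ ⟨x, hx, rfl⟩
    exact hM.conj_mem x (Subgroup.mem_sup_right hx) h
  have hc : Nat.card (L.map (MulAut.conj h).toMonoidHom) = Nat.card L :=
    Subgroup.card_map_of_injective (MulAut.conj h).injective
  obtain ⟨d, hd, he⟩ := S0030.exists_conj_eq L Q _
    (le_normalizer_of_normal) hcop (Or.inr hQs) hB hc
  refine ⟨d⁻¹, Q.inv_mem hd, ?_⟩
  have key : ∀ x ∈ L, (d⁻¹ * h) * x * (d⁻¹ * h)⁻¹ ∈ L := by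
    intro x hx
    have h1 : h * x * h⁻¹ ∈ L.map (MulAut.conj h).toMonoidHom := ⟨x, hx, by simp⟩
    rw [← he] at h1
    obtain ⟨y, hy, hy2⟩ := h1
    have h2 : d * y * d⁻¹ = h * x * h⁻¹ := by simpa using hy2
    have h3 : (d⁻¹ * h) * x * (d⁻¹ * h)⁻¹ = y := by
      calc (d⁻¹ * h) * x * (d⁻¹ * h)⁻¹ = d⁻¹ * (h * x * h⁻¹) * d := by group
        _ = y := by rw [← h2]; group
    rw [h3]; exact hy
  exact Subgroup.mem_normalizer_fintype key

/-- The main lemma. -/
theorem index_coprime_or {H : Type*} [Group H] [Finite H] {p : ℕ} [hp : Fact p.Prime]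
    (hsol : IsPSolvable p H) (hO : pPrimeCore p H = ⊥) (hdvd : p ∣ Nat.card H)
    (htr : ∀ D : Subgroup H, D.Characteristic → (∃ x ∈ D, orderOf x = p) →
      ∀ x : H, orderOf x = p → x ∈ D) :
    (∀ x : H, orderOf x = p → x ∈ pCore p H ∧ ∀ y ∈ pCore p H, y * x = x * y) ∧
    ((pCore p H).index.Coprime p ∨
      ∀ x : H, orderOf x = p → ∀ m ∈ (pPrimeCore p (H ⧸ pCore p H)).comap (QuotientGroup.mk' (pCore p H)),
        m * x = x * m) := by
  have hcQ : (pCore p H).Characteristic := Lib.Cores.pCore_characteristic p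
  have hQp : IsPGroup p (pCore p H) := Lib.Cores.pCore_isPGroup p
  have hCQ := Lib.PSolvable.centralizer_pCore_le_of_pSolvable p hsol hO
  -- `Q ≠ 1`
  have hQne : pCore p H ≠ ⊥ := by
    intro h
    rw [h] at hCQ
    have h1 : (⊤ : Subgroup H) ≤ ⊥ := by
      refine le_trans ?_ hCQ
      intro x _
      rw [mem_centralizer_iff]
      intro y hy
      have : y = 1 := by simpa using hy
      rw [this]; simp
    have h2 : Nat.card H = 1 := by
      rw [← Subgroup.card_top (G := H), eq_bot_iff.mpr h1, Subgroup.card_bot]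
    rw [h2] at hdvd
    exact hp.out.one_lt.ne' (Nat.dvd_one.mp hdvd)
  set Q := pCore p H with hQdef
  have hQn : Q.Normal := inferInstance
  -- the centre of `Q`
  have hZch : (Q ⊓ centralizer (Q : Set H)).Characteristic := inferInstance
  have hZne : ∃ x ∈ (Q ⊓ centralizer (Q : Set H)), orderOf x = p := by
    have hnt : Nontrivial Q := (Subgroup.nontrivial_iff_ne_bot Q).mpr hQne
    have h1 := hQp.center_nontrivial
    obtain ⟨k, hk0, hk⟩ := (hQp.to_subgroup (center Q)).nontrivial_iff_card.mp h1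
    have h2 : p ∣ Nat.card (center Q) := by
      rw [hk]; exact dvd_pow_self p hk0.ne'
    obtain ⟨z, hz⟩ := exists_prime_orderOf_dvd_card' p h2
    refine ⟨((z : Q) : H), ⟨(z : Q).2, ?_⟩, ?_⟩
    · show ((z : Q) : H) ∈ centralizer (Q : Set H)
      rw [mem_centralizer_iff]
      intro y hy
      have := (Subgroup.mem_center_iff.mp z.2) ⟨y, hy⟩
      exact congrArg Subtype.val this
    · rw [Subgroup.orderOf_coe, Subgroup.orderOf_coe, hz]
  have hall := htr _ hZch hZne
  refine ⟨fun x hx => ⟨(hall x hx).1, fun y hy => mem_centralizer_iff.mp (hall x hx).2 y hy⟩, ?_⟩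
  -- the preimage `M` of `O_{p'}(H/Q)`
  set M := (pPrimeCore p (H ⧸ Q)).comap (QuotientGroup.mk' Q) with hM
  have hMn : M.Normal := inferInstance
  have hQM : Q ≤ M := by
    intro x hx
    rw [hM, mem_comap]
    have : QuotientGroup.mk' Q x = 1 := (QuotientGroup.eq_one_iff x).2 hx
    rw [this]; exact one_mem _
  have hMcard : Nat.card M = Nat.card Q * Nat.card (pPrimeCore p (H ⧸ Q)) :=
    OddOrderLocal.PLengthOne.card_comap_mk' Q _
  have hKc : (Nat.card (pPrimeCore p (H ⧸ Q))).Coprime p := Lib.Cores.pPrimeCore_coprime p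
  have hMch : M.Characteristic := by
    rw [Subgroup.characteristic_iff_map_le]
    intro e
    let e' : (H ⧸ Q) ≃* (H ⧸ Q) := QuotientGroup.congr Q Q e (Subgroup.characteristic_iff_map_eq.mp hcQ e)
    rintro _ ⟨x, hx, rfl⟩
    replace hx : QuotientGroup.mk' Q x ∈ pPrimeCore p (H ⧸ Q) := hx
    rw [hM, mem_comap]
    have h1 : QuotientGroup.mk' Q (e.toMonoidHom x) = e' (QuotientGroup.mk' Q x) := rfl
    rw [h1, ← Lib.Cores.map_equiv_pPrimeCore e' p]
    exact ⟨_, hx, rfl⟩
  -- a complement
  obtain ⟨a, ha⟩ := IsPGroup.iff_card.mp hQp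
  have hrel : Nat.card (Q.subgroupOf M) = Nat.card Q := Nat.card_congr (subgroupOfEquivOfLe hQM).toEquiv
  have hidx : (Q.subgroupOf M).index = Nat.card (pPrimeCore p (H ⧸ Q)) := by
    have h1 := Subgroup.card_mul_index (Q.subgroupOf M)
    rw [hrel, hMcard] at h1
    exact Nat.eq_of_mul_eq_mul_left Nat.card_pos h1
  have hcop1 : (Nat.card (Q.subgroupOf M)).Coprime (Q.subgroupOf M).index := by
    rw [hrel, hidx, ha]
    exact (Nat.Coprime.pow_right a hKc).symm
  obtain ⟨L', hL'⟩ := Subgroup.exists_right_complement'_of_coprime hcop1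
  let L : Subgroup H := L'.map M.subtype
  have hLM : L ≤ M := Subgroup.map_subtype_le L'
  have hLcard : Nat.card L = Nat.card (pPrimeCore p (H ⧸ Q)) := by
    have h1 : Nat.card L = Nat.card L' := Subgroup.card_map_of_injective M.subtype_injective
    rw [h1, ← hidx]
    exact hL'.symm.index_eq_card.symm
  have hLcop : (Nat.card L).Coprime (Nat.card Q) := by
    rw [hLcard, ha]; exact Nat.Coprime.pow_right a hKc
  have hsup : Q ⊔ L = M := by
    apply le_antisymm (sup_le hQM hLM)
    intro m hm
    obtain ⟨⟨q, l⟩, hql⟩ := hL'.2 ⟨m, hm⟩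
    have h1 : ((q : M) : H) * ((l : M) : H) = m := congrArg Subtype.val hql
    rw [← h1]
    refine Subgroup.mul_mem_sup ?_ ?_
    · exact q.2
    · exact ⟨l, l.2, rfl⟩
  have hinf : Q ⊓ L = ⊥ := (Subgroup.disjoint_of_coprime_natCard hLcop.symm).eq_bot
  have hQs : Group.IsSolvable Q := by
    have := hQp.isNilpotent
    infer_instance
  by_cases hfix : ∃ x ∈ Q, orderOf x = p ∧ ∀ l ∈ L, l * x = x * l
  · right
    obtain ⟨x, hxQ, hxp, hxL⟩ := hfix
    have hDch : ((Q ⊓ centralizer (Q : Set H)) ⊓ centralizer (M : Set H)).Characteristic := inferInstance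
    have hxZ := hall x hxp
    have hxM : x ∈ centralizer (M : Set H) := by
      rw [← hsup]
      have h1 : Q ⊔ L ≤ centralizer ({x} : Set H) := by
        refine sup_le ?_ ?_
        · intro y hy
          rw [mem_centralizer_singleton_iff]
          exact mem_centralizer_iff.mp hxZ.2 y hy
        · intro y hy
          rw [mem_centralizer_singleton_iff]
          exact hxL y hy
      rw [mem_centralizer_iff]
      intro y hy
      exact mem_centralizer_singleton_iff.mp (h1 hy)
    have h2 := htr _ hDch ⟨x, ⟨hxZ, hxM⟩, hxp⟩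
    intro y hy m hm
    exact mem_centralizer_iff.mp (h2 y hy).2 m hm
  · left
    push Not at hfix
    -- `N_H(L) ∩ Q = 1`
    have hN : Q ⊓ normalizer (L : Set H) = ⊥ := by
      by_contra hne
      obtain ⟨x, hx, hxp⟩ : ∃ x ∈ Q ⊓ normalizer (L : Set H), orderOf x = p := by
        have h1 : IsPGroup p (Q ⊓ normalizer (L : Set H) : Subgroup H) := hQp.to_le inf_le_left
        have hnt : Nontrivial (Q ⊓ normalizer (L : Set H) : Subgroup H) :=
          (Subgroup.nontrivial_iff_ne_bot _).mpr hne
        obtain ⟨k, hk0, hk⟩ := h1.nontrivial_iff_card.mp hnt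
        have h2 : p ∣ Nat.card (Q ⊓ normalizer (L : Set H) : Subgroup H) := by
          rw [hk]; exact dvd_pow_self p hk0.ne'
        obtain ⟨z, hz⟩ := exists_prime_orderOf_dvd_card' p h2
        exact ⟨z, z.2, by rw [Subgroup.orderOf_coe, hz]⟩
      obtain ⟨l, hl, hne2⟩ := hfix x hx.1 hxp
      apply hne2
      have h3 : l * x * l⁻¹ * x⁻¹ ∈ Q ⊓ L := by
        refine ⟨?_, ?_⟩
        · exact Q.mul_mem (hQn.conj_mem x hx.1 l) (Q.inv_mem hx.1)
        · have h4 : x * l⁻¹ * x⁻¹ ∈ L := (mem_normalizer_iff.mp hx.2 _).mp (L.inv_mem hl)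
          have h5 : l * x * l⁻¹ * x⁻¹ = l * (x * l⁻¹ * x⁻¹) := by group
          rw [h5]; exact L.mul_mem hl h4
      rw [hinf, mem_bot] at h3
      have h4 : l * x * l⁻¹ = x := by
        rw [mul_inv_eq_one] at h3; exact h3
      calc l * x = (l * x * l⁻¹) * l := by group
        _ = x * l := by rw [h4]
    by_contra hnc
    have hpi : p ∣ Q.index := by
      by_contra h
      exact hnc ((Nat.Prime.coprime_iff_not_dvd hp.out).mpr h).symm
    have htop : Q ⊔ normalizer (L : Set H) = ⊤ := by
      rw [eq_top_iff]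
      intro h _
      obtain ⟨q, hq, hqn⟩ := exists_mul_mem_normalizer Q L hQs hLcop (by rw [hsup]; exact hMn) h
      have : h = q⁻¹ * (q * h) := by group
      rw [this]
      exact Subgroup.mul_mem_sup (Q.inv_mem hq) hqn
    have hdN : p ∣ Nat.card (normalizer (L : Set H)) := by
      have h1 : Q.relIndex (normalizer (L : Set H)) = Q.index := by
        rw [← Subgroup.relIndex_sup_right, sup_comm, htop, Subgroup.relIndex_top_right]
      rw [← h1] at hpi
      exact hpi.trans (Subgroup.relIndex_dvd_card _ _)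
    obtain ⟨z, hz⟩ := exists_prime_orderOf_dvd_card' p hdN
    have hz' : orderOf (z : H) = p := by rw [Subgroup.orderOf_coe, hz]
    have hzQ : (z : H) ∈ Q ⊓ normalizer (L : Set H) := ⟨(hall z hz').1, z.2⟩
    rw [hN, mem_bot] at hzQ
    rw [hzQ, orderOf_one] at hz'
    exact hp.out.one_lt.ne hz'

/-- Odd case. -/
theorem index_coprime {H : Type*} [Group H] [Finite H] {p : ℕ} [hp : Fact p.Prime] (hp2 : p ≠ 2)
    (hsol : IsPSolvable p H) (hO : pPrimeCore p H = ⊥) (hdvd : p ∣ Nat.card H)
    (htr : ∀ D : Subgroup H, D.Characteristic → (∃ x ∈ D, orderOf x = p) →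
      ∀ x : H, orderOf x = p → x ∈ D) :
    (pCore p H).index.Coprime p := by
  obtain ⟨h0, h | h⟩ := index_coprime_or hsol hO hdvd htr
  · exact h
  · set Q := pCore p H with hQdef
    set M := (pPrimeCore p (H ⧸ Q)).comap (QuotientGroup.mk' Q) with hM
    have hQp : IsPGroup p Q := Lib.Cores.pCore_isPGroup p
    have hCQ := Lib.PSolvable.centralizer_pCore_le_of_pSolvable p hsol hO
    have hMcard : Nat.card M = Nat.card Q * Nat.card (pPrimeCore p (H ⧸ Q)) :=
      OddOrderLocal.PLengthOne.card_comap_mk' Q _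
    have hQM : Q ≤ M := by
      intro x hx
      rw [hM, mem_comap]
      have : QuotientGroup.mk' Q x = 1 := (QuotientGroup.eq_one_iff x).2 hx
      rw [this]; exact one_mem _
    -- elements of order prime to `p` of `M` are trivial
    have h1 : ∀ m ∈ M, (orderOf m).Coprime p → m = 1 := by
      intro m hm hmo
      have h2 : zpowers m ≤ centralizer (Q : Set H) := by
        refine Lib.CoprimeStab.le_centralizer_of_omega p hp2 (zpowers m) (by rwa [Nat.card_zpowers]) Q hQp
          le_normalizer_of_normal ?_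
        intro x hx hxp b hb
        have hxo : x = 1 ∨ orderOf x = p := by
          have := orderOf_dvd_of_pow_eq_one hxp
          rcases (Nat.dvd_prime hp.out).mp this with h | h
          · left; exact orderOf_eq_one_iff.mp h
          · right; exact h
        rcases hxo with rfl | hxo
        · exact Commute.one_left b
        · have hbM : b ∈ M := (zpowers_le.mpr hm) hb
          exact (h x hxo b hbM).symm
      have h3 : m ∈ Q := hCQ (h2 (mem_zpowers m))
      obtain ⟨k, hk⟩ := hQp ⟨m, h3⟩
      have h4 : m ^ p ^ k = 1 := congrArg Subtype.val hk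
      have h5 := orderOf_dvd_of_pow_eq_one h4
      have h6 : (orderOf m).Coprime (p ^ k) := Nat.Coprime.pow_right k hmo
      exact orderOf_eq_one_iff.mp (Nat.Coprime.eq_one_of_dvd h6 h5)
    have h2 : pPrimeCore p (H ⧸ Q) = ⊥ := by
      by_contra hne
      have h3 : 1 < Nat.card (pPrimeCore p (H ⧸ Q)) := by
        rw [Subgroup.one_lt_card_iff_ne_bot]; exact hne
      obtain ⟨r, hr, hrd⟩ := Nat.exists_prime_and_dvd h3.ne'
      have hrp : r ≠ p := by
        rintro rfl
        have h4 := Lib.Cores.pPrimeCore_coprime (G := H ⧸ Q) r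
        exact (Nat.Prime.coprime_iff_not_dvd hr).mp h4.symm hrd
      have := Fact.mk hr
      have h4 : r ∣ Nat.card M := by rw [hMcard]; exact hrd.mul_left _
      obtain ⟨m, hm⟩ := exists_prime_orderOf_dvd_card' r h4
      have h5 := h1 m m.2 (by
        rw [Subgroup.orderOf_coe, hm]
        exact (Nat.coprime_primes hr hp.out).mpr hrp)
      have h6 : orderOf (m : H) = r := by rw [Subgroup.orderOf_coe, hm]
      rw [h5, orderOf_one] at h6
      exact hr.one_lt.ne h6
    have h3 : pCore p (H ⧸ Q) = ⊥ := Lib.Cores.pCore_quotient_pCore p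
    by_contra hnc
    have hnt : Nontrivial (H ⧸ Q) := by
      by_contra hnt
      rw [not_nontrivial_iff_subsingleton] at hnt
      apply hnc
      have : Q.index = 1 := Nat.card_unique
      rw [this]; exact Nat.coprime_one_left p
    rcases Lib.PSolvable.exists_core_ne_bot p (Lib.PSolvable.IsPSolvable_of_surjective p hsol
      (QuotientGroup.mk' Q) (QuotientGroup.mk'_surjective Q)) with h4 | h4
    · exact h4 h3
    · exact h4 h2

/-- lifting an element of order `p` through a quotient by a normal `p'`-subgroup -/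
theorem exists_lift {G : Type*} [Group G] [Finite G] {p : ℕ} [hp : Fact p.Prime] (N : Subgroup G)
    [N.Normal] (hN : (Nat.card N).Coprime p) (U : Subgroup (G ⧸ N)) (hU : Nat.card U = p) :
    ∃ V : Subgroup G, Nat.card V = p ∧ V.map (QuotientGroup.mk' N) = U := by
  have h1 : Nat.card (U.comap (QuotientGroup.mk' N)) = Nat.card N * Nat.card U :=
    OddOrderLocal.PLengthOne.card_comap_mk' N U
  have h2 : p ∣ Nat.card (U.comap (QuotientGroup.mk' N)) := by
    rw [h1, hU]; exact dvd_mul_left _ _
  obtain ⟨x, hx⟩ := exists_prime_orderOf_dvd_card' p h2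
  have hx' : orderOf (x : G) = p := by rw [Subgroup.orderOf_coe, hx]
  refine ⟨zpowers (x : G), by rw [Nat.card_zpowers, hx'], ?_⟩
  have h3 : (zpowers (x : G)).map (QuotientGroup.mk' N) ≤ U := by
    rw [MonoidHom.map_zpowers, zpowers_le]
    exact x.2
  apply Subgroup.eq_of_le_of_card_ge h3
  rw [hU, MonoidHom.map_zpowers, Nat.card_zpowers]
  have h4 : orderOf (QuotientGroup.mk' N (x : G)) ∣ p := by
    rw [← hx']; exact orderOf_map_dvd _ _
  rcases (Nat.dvd_prime hp.out).mp h4 with h5 | h5
  · exfalso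
    have h6 : (x : G) ∈ N := (QuotientGroup.eq_one_iff _).mp (orderOf_eq_one_iff.mp h5)
    have h7 : orderOf (x : G) ∣ Nat.card N := Subgroup.orderOf_dvd_natCard N h6
    rw [hx'] at h7
    exact (Nat.Prime.coprime_iff_not_dvd hp.out).mp hN.symm h7
  · rw [h5]

end Cfsg.Agent.H453.PLen
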